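import Mathlib
import Cfsg.Prelude.Def_GeometricClasses
import Cfsg.Prelude.Def_LieClassical

/-!
# Project UPair (S5984): interface

`PSU_n(q)` (`n` even) acting on the pairs of complementary totally singular `n/2`-spaces.
All packages are closed `Prop`s; see the plan note (topic S5984) for the paper proofs.
-/

set_option autoImplicit false
open scoped MatrixGroups Matrix

namespace Cfsg.Agent.Lib.Helper58.UPair

universe u

/-- The ambient group `SU_n(q)` inside `GL_n(q²)`. -/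
abbrev Gp (n : ℕ) (F : Type u) [Field F] (q : ℕ) : Subgroup (GL (Fin n) F) :=
  Cfsg.GU n F q ⊓ Cfsg.Geo.specialLinear (Fin n) F

/-- `D` is a pair of complementary totally singular `m`-spaces of `F^n`. -/
def IsTSPair (n m : ℕ) (F : Type u) [Field F] (q : ℕ) (D : Fin 2 → Submodule F (Fin n → F)) : Prop :=
  Cfsg.Geo.IsMDecomposition m D ∧
    ∀ i, Cfsg.Geo.IsTotallySingularFor (Cfsg.hermForm n F q) (D i)

/-- `x` maps each member of `D` onto itself. -/
def Fixes {n : ℕ} {F : Type u} [Field F] (x : GL (Fin n) F)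
    (D : Fin 2 → Submodule F (Fin n → F)) : Prop :=
  ∀ i, (D i).map (Matrix.toLin' (x : Matrix (Fin n) (Fin n) F)) = D i

/-- The matrix `x - c`. -/
abbrev sh {n : ℕ} {F : Type u} [Field F] (x : GL (Fin n) F) (c : F) : Matrix (Fin n) (Fin n) F :=
  (x : Matrix (Fin n) (Fin n) F) - c • (1 : Matrix (Fin n) (Fin n) F)

/-- `b` is a basis of `F^n` adapted to the pair `D`: the `inl` vectors lie in `D 0`, the `inr` vectors
in `D 1`, and the two halves are dual to each other for the hermitian form. -/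
def IsAdapted (n m : ℕ) (F : Type u) [Field F] (q : ℕ) (D : Fin 2 → Submodule F (Fin n → F))
    (b : Module.Basis (Fin m ⊕ Fin m) F (Fin n → F)) : Prop :=
  (∀ i, b (Sum.inl i) ∈ D 0) ∧ (∀ i, b (Sum.inr i) ∈ D 1) ∧
    ∀ i j, Cfsg.hermForm n F q (b (Sum.inl i)) (b (Sum.inr j)) = if i = j then 1 else 0

/-! ## Packages on the stabilizer of a decomposition (no form) -/

/-- [PERM] an element of the stabilizer fixes both members or swaps them. -/
def PkgPerm : Prop :=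
  ∀ (F : Type u) [Field F] (n : ℕ) (D : Fin 2 → Submodule F (Fin n → F)) (x : GL (Fin n) F),
    x ∈ Cfsg.Geo.decompositionStabilizer D →
    Fixes x D ∨ ((D 0).map (Matrix.toLin' (x : Matrix (Fin n) (Fin n) F)) = D 1 ∧
      (D 1).map (Matrix.toLin' (x : Matrix (Fin n) (Fin n) F)) = D 0)

/-- [ODD] an element with scalar odd power cannot swap the two members. -/
def PkgOdd : Prop :=
  ∀ (F : Type u) [Field F] (n m : ℕ) (D : Fin 2 → Submodule F (Fin n → F)) (x : GL (Fin n) F)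
    (r : ℕ) (z : F), Cfsg.Geo.IsMDecomposition m D → Odd r →
    ((x ^ r : GL (Fin n) F) : Matrix (Fin n) (Fin n) F) = z • (1 : Matrix (Fin n) (Fin n) F) →
    (D 0).map (Matrix.toLin' (x : Matrix (Fin n) (Fin n) F)) = D 1 →
    (D 1).map (Matrix.toLin' (x : Matrix (Fin n) (Fin n) F)) = D 0 → False

/-- [SWAPRANK] if `x` maps `D 0` onto `D 1` then `x - c` is injective on `D 0`. -/
def PkgSwapRank : Prop :=
  ∀ (F : Type u) [Field F] (n m : ℕ) (D : Fin 2 → Submodule F (Fin n → F)) (x : GL (Fin n) F)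
    (c : F), Cfsg.Geo.IsMDecomposition m D →
    (D 0).map (Matrix.toLin' (x : Matrix (Fin n) (Fin n) F)) = D 1 → m ≤ (sh x c).rank

/-- [CONJ] conjugation: `g⁻¹ x g` stabilizes `D` implies `x` stabilizes `g D`. -/
def PkgConj : Prop :=
  ∀ (F : Type u) [Field F] (n : ℕ) (D : Fin 2 → Submodule F (Fin n → F)) (g x : GL (Fin n) F),
    g⁻¹ * x * g ∈ Cfsg.Geo.decompositionStabilizer D →
    x ∈ Cfsg.Geo.decompositionStabilizer
      (fun i => (D i).map (Matrix.toLin' (g : Matrix (Fin n) (Fin n) F)))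

/-- [CONJIN] if `g` maps `D` to `D'` and `x` fixes `D'` then `g⁻¹ x g` stabilizes `D`. -/
def PkgConjIn : Prop :=
  ∀ (F : Type u) [Field F] (n : ℕ) (D D' : Fin 2 → Submodule F (Fin n → F)) (g x : GL (Fin n) F),
    (∀ i, (D i).map (Matrix.toLin' (g : Matrix (Fin n) (Fin n) F)) = D' i) → Fixes x D' →
    g⁻¹ * x * g ∈ Cfsg.Geo.decompositionStabilizer D

/-- [NONSC] `0 < rank (x - c) < n` implies `x` is not scalar. -/
def PkgNonScalar : Prop :=
  ∀ (F : Type u) [Field F] (n : ℕ) (x : GL (Fin n) F) (c : F),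
    0 < (sh x c).rank → (sh x c).rank < n →
    ∀ z : F, (x : Matrix (Fin n) (Fin n) F) ≠ z • (1 : Matrix (Fin n) (Fin n) F)

/-! ## Packages on unitary matrices -/

/-- [MOVE] a unitary matrix maps totally singular pairs to totally singular pairs. -/
def PkgMove : Prop :=
  ∀ (F : Type u) [Field F] [Fintype F] (q n m : ℕ) (D : Fin 2 → Submodule F (Fin n → F))
    (g : GL (Fin n) F), IsTSPair n m F q D → g ∈ Cfsg.GU n F q →
    IsTSPair n m F q (fun i => (D i).map (Matrix.toLin' (g : Matrix (Fin n) (Fin n) F)))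

/-- [GUDET] the determinant of a unitary matrix has norm 1. -/
def PkgGUDet : Prop :=
  ∀ (F : Type u) [Field F] [Fintype F] (q n : ℕ) (g : GL (Fin n) F), Fintype.card F = q ^ 2 →
    g ∈ Cfsg.GU n F q → (g : Matrix (Fin n) (Fin n) F).det ^ (q + 1) = 1

/-- [SCALNORM] a scalar power of a unitary matrix is a scalar of norm 1. -/
def PkgScalNorm : Prop :=
  ∀ (F : Type u) [Field F] [Fintype F] (q n : ℕ) (x : GL (Fin n) F) (z : F) (k : ℕ),
    Fintype.card F = q ^ 2 → 1 ≤ n → x ∈ Cfsg.GU n F q →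
    ((x ^ k : GL (Fin n) F) : Matrix (Fin n) (Fin n) F) = z • (1 : Matrix (Fin n) (Fin n) F) →
    z ^ (q + 1) = 1

/-- [TSDIM] a totally singular subspace has dimension at most `n/2`. -/
def PkgTSDim : Prop :=
  ∀ (F : Type u) [Field F] [Fintype F] (q n : ℕ) (W : Submodule F (Fin n → F)),
    Fintype.card F = q ^ 2 → Cfsg.Geo.IsTotallySingularFor (Cfsg.hermForm n F q) W →
    2 * Module.finrank F W ≤ n

/-- [DUALB] a totally singular pair has an adapted basis. -/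
def PkgDualBasis : Prop :=
  ∀ (F : Type u) [Field F] [Fintype F] (q n m : ℕ) (D : Fin 2 → Submodule F (Fin n → F)),
    Fintype.card F = q ^ 2 → IsTSPair n m F q D →
    ∃ b : Module.Basis (Fin m ⊕ Fin m) F (Fin n → F), IsAdapted n m F q D b

/-- [ISOB] two adapted bases give a unitary matrix carrying one pair to the other. -/
def PkgIsoOfBases : Prop :=
  ∀ (F : Type u) [Field F] [Fintype F] (q n m : ℕ) (D D' : Fin 2 → Submodule F (Fin n → F))
    (b b' : Module.Basis (Fin m ⊕ Fin m) F (Fin n → F)), Fintype.card F = q ^ 2 →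
    IsTSPair n m F q D → IsTSPair n m F q D' → IsAdapted n m F q D b → IsAdapted n m F q D' b' →
    ∃ g ∈ Cfsg.GU n F q, ∀ i, (D i).map (Matrix.toLin' (g : Matrix (Fin n) (Fin n) F)) = D' i

/-- [DETFIX] the unitary matrices fixing both members of a pair have every norm-1 determinant. -/
def PkgDetFix : Prop :=
  ∀ (F : Type u) [Field F] [Fintype F] (q n m : ℕ) (D : Fin 2 → Submodule F (Fin n → F))
    (b : Module.Basis (Fin m ⊕ Fin m) F (Fin n → F)) (d : F), Fintype.card F = q ^ 2 →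
    IsTSPair n m F q D → IsAdapted n m F q D b → d ^ (q + 1) = 1 →
    ∃ k ∈ Cfsg.GU n F q, (k : Matrix (Fin n) (Fin n) F).det = d ∧ Fixes k D

/-- [FIXRANK] for a unitary matrix fixing both members and `c` of norm 1, `rank (x - c)` is even. -/
def PkgFixRank : Prop :=
  ∀ (F : Type u) [Field F] [Fintype F] (q n m : ℕ) (D : Fin 2 → Submodule F (Fin n → F))
    (x : GL (Fin n) F) (c : F), Fintype.card F = q ^ 2 → IsTSPair n m F q D →
    x ∈ Cfsg.GU n F q → Fixes x D → c ^ (q + 1) = 1 → Even (sh x c).rank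

/-- [EMB] `GL_m(q²)` embeds into the unitary matrices fixing both members of a pair. -/
def PkgEmb : Prop :=
  ∀ (F : Type u) [Field F] [Fintype F] (q n m : ℕ) (D : Fin 2 → Submodule F (Fin n → F))
    (b : Module.Basis (Fin m ⊕ Fin m) F (Fin n → F)), Fintype.card F = q ^ 2 →
    IsTSPair n m F q D → IsAdapted n m F q D b →
    ∃ φ : GL (Fin m) F →* GL (Fin n) F, Function.Injective φ ∧
      ∀ A : GL (Fin m) F, φ A ∈ Cfsg.GU n F q ∧ Fixes (φ A) D ∧
        ((φ A : GL (Fin n) F) : Matrix (Fin n) (Fin n) F).det *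
          (A : Matrix (Fin m) (Fin m) F).det ^ q = (A : Matrix (Fin m) (Fin m) F).det

/-- [CARDK] the matrices of `GL_m(q²)` with determinant in `F_q` have index `q + 1`. -/
def PkgCardK : Prop :=
  ∀ (F : Type u) [Field F] [Fintype F] (q m : ℕ), Fintype.card F = q ^ 2 → 1 ≤ m →
    Nat.card {A : GL (Fin m) F // (A : Matrix (Fin m) (Fin m) F).det ^ (q - 1) = 1} * (q + 1) =
      Nat.card (GL (Fin m) F)

/-- [IDXDVD] the index of the stabilizer times `|GL_m(q²)|` divides `(q+1) |GU_n(q)|`. -/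
def PkgIdxDvd : Prop :=
  ∀ (F : Type u) [Field F] [Fintype F] (q n m : ℕ) (D : Fin 2 → Submodule F (Fin n → F)),
    Fintype.card F = q ^ 2 → IsTSPair n m F q D →
    (Cfsg.Geo.decompositionStabilizer D).relIndex (Gp n F q) * Nat.card (GL (Fin m) F) ∣
      (q + 1) * Nat.card (Cfsg.GU n F q)

/-- [IDXARITH] the arithmetic of the two order formulas. -/
def PkgIdxArith : Prop :=
  ∀ (q m n R r : ℕ), 2 ≤ q → 1 ≤ m → n = 2 * m → r.Prime → r ∣ R →
    R * (∏ i : Fin m, ((q ^ 2) ^ m - (q ^ 2) ^ (i : ℕ))) ∣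
      (q + 1) * (q ^ (n * (n - 1) / 2) *
        ∏ i ∈ Finset.range n, (if Even i then q ^ (i + 1) + 1 else q ^ (i + 1) - 1)) →
    r ∣ q ∨ ∃ j, Odd j ∧ j + 1 ≤ n ∧ r ∣ q ^ j + 1

/-! ## Existence of derangements -/

/-- [TRANSV] a unitary transvection. -/
def PkgTransv : Prop :=
  ∀ (F : Type u) [Field F] [Fintype F] (p : ℕ) [Fact p.Prime] [CharP F p] (q n : ℕ),
    Fintype.card F = q ^ 2 → 2 ≤ n → ∃ x ∈ Gp n F q, x ^ p = 1 ∧ (sh x 1).rank = 1

/-- [SEMIA] `r ∣ q + 1`: `diag(λ, λ, λ⁻², 1, …, 1)`. -/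
def PkgSemiA : Prop :=
  ∀ (F : Type u) [Field F] [Fintype F] (q n r : ℕ), Fintype.card F = q ^ 2 → 4 ≤ n →
    r.Prime → r ≠ 2 → r ∣ q + 1 → ∃ x ∈ Gp n F q, x ^ r = 1 ∧ (sh x 1).rank = 3

/-- [SEMIARITH] the order of `q` modulo `r`. -/
def PkgSemiArith : Prop :=
  ∀ (q r j : ℕ), r.Prime → r ≠ 2 → Odd j → r ∣ q ^ j + 1 → ¬ r ∣ q + 1 →
    ∃ j0, Odd j0 ∧ 3 ≤ j0 ∧ j0 ≤ j ∧ orderOf ((q : ℕ) : ZMod r) = 2 * j0

/-- [SEMICORE] an element of order `r` of `SU_j(q)` without eigenvalue 1, `ord_r(q) = 2j`. -/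
def PkgSemiCore : Prop :=
  ∀ (F : Type u) [Field F] [Fintype F] (p : ℕ) [Fact p.Prime] [CharP F p] (q r j : ℕ),
    Fintype.card F = q ^ 2 → r.Prime → r ≠ p → Odd j → 3 ≤ j →
    orderOf ((q : ℕ) : ZMod r) = 2 * j → ∃ B ∈ Gp j F q, B ^ r = 1 ∧ (sh B 1).rank = j

/-- [BLOCKEMB] `SU_j(q) → SU_n(q)`, `B ↦ B ⊕ 1`. -/
def PkgBlockEmb : Prop :=
  ∀ (F : Type u) [Field F] [Fintype F] (q j n : ℕ), Fintype.card F = q ^ 2 → j ≤ n →
    ∀ B ∈ Gp j F q, ∃ x ∈ Gp n F q, (∀ k : ℕ, B ^ k = 1 → x ^ k = 1) ∧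
      (sh x 1).rank = (sh B 1).rank

/-- [INVEX] `λ · diag(-1, 1, …, 1)` with `λ^n = -1`. -/
def PkgInvEx : Prop :=
  ∀ (F : Type u) [Field F] [Fintype F] (q n : ℕ), Fintype.card F = q ^ 2 → Odd q → 2 ≤ n →
    padicValNat 2 n < padicValNat 2 (q + 1) →
    ∃ x ∈ Gp n F q, ∃ c : F, c ^ (q + 1) = 1 ∧
      ((x ^ 2 : GL (Fin n) F) : Matrix (Fin n) (Fin n) F) =
        (c ^ 2) • (1 : Matrix (Fin n) (Fin n) F) ∧ (sh x c).rank = 1

/-! ## Elements with scalar square fix a pair -/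

/-- [ZDICH] a norm-1 element is `l²` with `l` of norm 1 or `μ²` with `μ` of norm `-1`. -/
def PkgZDich : Prop :=
  ∀ (F : Type u) [Field F] [Fintype F] (q : ℕ) (z : F), Fintype.card F = q ^ 2 → Odd q →
    z ^ (q + 1) = 1 →
    (∃ l : F, l ^ 2 = z ∧ l ^ (q + 1) = 1) ∨ (∃ μ : F, μ ^ 2 = z ∧ μ ^ (q + 1) = -1)

/-- [D1DET] determinant 1 forces the `(-l)`-eigenspace to have even dimension. -/
def PkgD1Det : Prop :=
  ∀ (F : Type u) [Field F] [Fintype F] (q n : ℕ) (x : GL (Fin n) F) (l : F),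
    Fintype.card F = q ^ 2 → Odd q → 1 ≤ n → x ∈ Gp n F q →
    ((x ^ 2 : GL (Fin n) F) : Matrix (Fin n) (Fin n) F) = (l ^ 2) • (1 : Matrix (Fin n) (Fin n) F) →
    l ^ (q + 1) = 1 → padicValNat 2 (q + 1) ≤ padicValNat 2 n → Even (sh x l).rank

/-- [HYP] a non-degenerate subspace of even dimension `2k` contains two disjoint totally singular
`k`-spaces. -/
def PkgHyp : Prop :=
  ∀ (F : Type u) [Field F] [Fintype F] (q n k : ℕ) (W : Submodule F (Fin n → F)),
    Fintype.card F = q ^ 2 →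
    (∀ u ∈ W, u ≠ 0 → ∃ v ∈ W, Cfsg.hermForm n F q u v ≠ 0) → Module.finrank F W = 2 * k →
    ∃ U U' : Submodule F (Fin n → F), U ≤ W ∧ U' ≤ W ∧
      Cfsg.Geo.IsTotallySingularFor (Cfsg.hermForm n F q) U ∧
      Cfsg.Geo.IsTotallySingularFor (Cfsg.hermForm n F q) U' ∧
      Module.finrank F U = k ∧ Module.finrank F U' = k ∧ Disjoint U U'

/-- [D1] `x² = l²`, `l` of norm 1, both eigenspaces of even dimension. -/
def PkgD1 : Prop :=
  ∀ (F : Type u) [Field F] [Fintype F] (q n : ℕ) (x : GL (Fin n) F) (l : F),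
    Fintype.card F = q ^ 2 → Odd q → Even n → 2 ≤ n → x ∈ Cfsg.GU n F q →
    ((x ^ 2 : GL (Fin n) F) : Matrix (Fin n) (Fin n) F) = (l ^ 2) • (1 : Matrix (Fin n) (Fin n) F) →
    l ^ (q + 1) = 1 → Even (sh x l).rank →
    ∃ D : Fin 2 → Submodule F (Fin n → F), IsTSPair n (n / 2) F q D ∧ Fixes x D

/-- [D2] `x² = μ²`, `μ` of norm `-1`: the two eigenspaces form a totally singular pair. -/
def PkgD2 : Prop :=
  ∀ (F : Type u) [Field F] [Fintype F] (q n : ℕ) (x : GL (Fin n) F) (μ : F),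
    Fintype.card F = q ^ 2 → Odd q → 2 ≤ n → x ∈ Cfsg.GU n F q →
    ((x ^ 2 : GL (Fin n) F) : Matrix (Fin n) (Fin n) F) = (μ ^ 2) • (1 : Matrix (Fin n) (Fin n) F) →
    μ ^ (q + 1) = -1 →
    ∃ D : Fin 2 → Submodule F (Fin n → F), IsTSPair n (n / 2) F q D ∧ Fixes x D

end Cfsg.Agent.Lib.Helper58.UPair
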