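import Cfsg.Agent.Lib.Helper58.UPair.Defs
import Cfsg.Agent.Lib.Helper45.HermGU

/-!
# Project UPair (S5984): assembly from the packages
-/

set_option autoImplicit false
open scoped MatrixGroups Matrix

namespace Cfsg.Agent.Lib.Helper58.UPair

universe u

/-- Transitivity of `SU_n(q)` on the totally singular pairs. -/
theorem pkgTrans_of (hDB : PkgDualBasis.{u}) (hIso : PkgIsoOfBases.{u}) (hDF : PkgDetFix.{u})
    (hGD : PkgGUDet.{u})
    {F : Type u} [Field F] [Fintype F] (q n m : ℕ) (hq : Fintype.card F = q ^ 2)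
    (D D' : Fin 2 → Submodule F (Fin n → F)) (hP : IsTSPair n m F q D)
    (hP' : IsTSPair n m F q D') :
    ∃ g ∈ Gp n F q, ∀ i, (D i).map (Matrix.toLin' (g : Matrix (Fin n) (Fin n) F)) = D' i := by
  obtain ⟨b, hb⟩ := hDB F q n m D hq hP
  obtain ⟨b', hb'⟩ := hDB F q n m D' hq hP'
  obtain ⟨g0, hg0, hg0D⟩ := hIso F q n m D D' b b' hq hP hP' hb hb'
  have hd := hGD F q n g0 hq hg0
  have hne : (g0 : Matrix (Fin n) (Fin n) F).det ≠ 0 := by
    intro h0
    rw [h0, zero_pow (by omega)] at hd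
    exact zero_ne_one hd
  obtain ⟨k, hk, hkdet, hkfix⟩ := hDF F q n m D' b'
    ((g0 : Matrix (Fin n) (Fin n) F).det)⁻¹ hq hP' hb' (by rw [inv_pow, hd, inv_one])
  refine ⟨k * g0, ⟨mul_mem hk hg0, ?_⟩, ?_⟩
  · show k * g0 ∈ (Matrix.GeneralLinearGroup.det : GL (Fin n) F →* Fˣ).ker
    rw [MonoidHom.mem_ker]
    apply Units.ext
    rw [Matrix.GeneralLinearGroup.val_det_apply, Units.val_mul, Matrix.det_mul, hkdet,
      Units.val_one]
    exact inv_mul_cancel₀ hne
  · intro i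
    rw [Units.val_mul, Matrix.toLin'_mul, Submodule.map_comp, hg0D i, hkfix i]

/-- The statement of S5984 from the packages. -/
theorem main5984 (hPerm : PkgPerm.{u}) (hOdd : PkgOdd.{u}) (hSwap : PkgSwapRank.{u})
    (hConj : PkgConj.{u}) (hConjIn : PkgConjIn.{u}) (hNS : PkgNonScalar.{u})
    (hMove : PkgMove.{u}) (hGD : PkgGUDet.{u}) (hSN : PkgScalNorm.{u})
    (hDB : PkgDualBasis.{u}) (hIso : PkgIsoOfBases.{u}) (hDF : PkgDetFix.{u})
    (hFR : PkgFixRank.{u}) (hIdx : PkgIdxDvd.{u}) (hIA : PkgIdxArith)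
    (hTr : PkgTransv.{u}) (hSA : PkgSemiA.{u}) (hSAr : PkgSemiArith) (hSC : PkgSemiCore.{u})
    (hBE : PkgBlockEmb.{u}) (hIE : PkgInvEx.{u}) (hZD : PkgZDich.{u}) (hD1D : PkgD1Det.{u})
    (hD1 : PkgD1.{u}) (hD2 : PkgD2.{u})
    {F : Type u} [Field F] [Fintype F] {p : ℕ} [Fact p.Prime] [CharP F p] {q : ℕ}
    (hq : Fintype.card F = q ^ 2)
    (n : ℕ) (hn : 4 ≤ n) (he : Even n) (D : Fin 2 → Submodule F (Fin n → F))
    (hD : Cfsg.Geo.IsMDecomposition (n / 2) D)
    (hDs : ∀ i, Cfsg.Geo.IsTotallySingularFor (Cfsg.hermForm n F q) (D i))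
    (r : ℕ) [Fact r.Prime]
    (hΩ : r ∣ (Cfsg.Geo.decompositionStabilizer D).relIndex (Cfsg.GU n F q ⊓ Cfsg.Geo.specialLinear (Fin n) F)) :
    (∀ x ∈ Cfsg.GU n F q ⊓ Cfsg.Geo.specialLinear (Fin n) F, (∃ z : F, ((x ^ r : GL (Fin n) F) : Matrix (Fin n) (Fin n) F) = z • (1 : Matrix (Fin n) (Fin n) F)) →
      (∀ z : F, (x : Matrix (Fin n) (Fin n) F) ≠ z • (1 : Matrix (Fin n) (Fin n) F)) →
      ∃ g ∈ Cfsg.GU n F q ⊓ Cfsg.Geo.specialLinear (Fin n) F, g⁻¹ * x * g ∈ Cfsg.Geo.decompositionStabilizer D) ↔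
    (r = 2 ∧ Odd q ∧ padicValNat 2 (q + 1) ≤ padicValNat 2 n) := by
  have hr : r.Prime := Fact.out
  have hpP : p.Prime := Fact.out
  have hq2 : 2 ≤ q := by
    have h1 : 1 < Fintype.card F := Fintype.one_lt_card
    rw [hq] at h1
    by_contra h
    interval_cases q <;> simp at h1
  have hPair : IsTSPair n (n / 2) F q D := ⟨hD, hDs⟩
  have hn2 : n = 2 * (n / 2) := by
    obtain ⟨k, hk⟩ := he
    omega
  -- the derangement criterion
  have der : ∀ x ∈ Gp n F q, ∀ z c : F,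
      ((x ^ r : GL (Fin n) F) : Matrix (Fin n) (Fin n) F) = z • (1 : Matrix (Fin n) (Fin n) F) →
      c ^ (q + 1) = 1 → Odd (sh x c).rank → (Odd r ∨ (sh x c).rank < n / 2) → (sh x c).rank < n →
      (∀ x ∈ Cfsg.GU n F q ⊓ Cfsg.Geo.specialLinear (Fin n) F, (∃ z : F, ((x ^ r : GL (Fin n) F) : Matrix (Fin n) (Fin n) F) = z • (1 : Matrix (Fin n) (Fin n) F)) →
        (∀ z : F, (x : Matrix (Fin n) (Fin n) F) ≠ z • (1 : Matrix (Fin n) (Fin n) F)) →
        ∃ g ∈ Cfsg.GU n F q ⊓ Cfsg.Geo.specialLinear (Fin n) F, g⁻¹ * x * g ∈ Cfsg.Geo.decompositionStabilizer D) →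
      False := by
    intro x hx z c hz hc h1 h2 h3 hL
    have hns := hNS F n x c (Odd.pos h1) h3
    obtain ⟨g, hg, hgx⟩ := hL x hx ⟨z, hz⟩ hns
    have hP' := hMove F q n (n / 2) D g hPair hg.1
    have hx' := hConj F n D g x hgx
    rcases hPerm F n _ x hx' with hfix | ⟨hs0, hs1⟩
    · have hev := hFR F q n (n / 2) _ x c hq hP' hx.1 hfix hc
      exact (Nat.not_even_iff_odd.mpr h1) hev
    · rcases h2 with h2 | h2
      · exact hOdd F n (n / 2) _ x r z hP'.1 h2 hz hs0 hs1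
      · have := hSwap F n (n / 2) _ x c hP'.1 hs0
        omega
  constructor
  · intro hL
    by_contra hR
    by_cases hrp : r = p
    · obtain ⟨x, hx, hxp, hrk⟩ := hTr F p q n hq (by omega)
      have hxr : x ^ r = 1 := by rw [hrp]; exact hxp
      exact der x hx 1 1 (by rw [hxr]; simp) (one_pow _) (by rw [hrk]; exact odd_one)
        (Or.inr (by rw [hrk]; omega)) (by rw [hrk]; omega) hL
    · have hdvd := hIdx F q n (n / 2) D hq hPair
      rw [Matrix.card_GL_field, hq, Cfsg.Agent.Lib.Helper45.card_GU hq n] at hdvd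
      rcases hIA q (n / 2) n _ r hq2 (by omega) hn2 hr hΩ hdvd with hrq | ⟨j, hj, hjn, hrj⟩
      · apply hrp
        obtain ⟨k, -, hk⟩ := FiniteField.card F p
        have h1 : r ∣ p ^ (k : ℕ) := by
          rw [← hk, hq]
          exact dvd_pow hrq (by norm_num)
        exact (Nat.prime_dvd_prime_iff_eq hr hpP).mp (hr.dvd_of_dvd_pow h1)
      · by_cases hr2 : r = 2
        · subst hr2
          have hodd : Odd q := by
            by_contra hne
            rw [Nat.not_odd_iff_even] at hne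
            have hj0 : j ≠ 0 := by
              obtain ⟨t, ht⟩ := hj
              omega
            have h1 : Even (q ^ j) := hne.pow_of_ne_zero hj0
            have h2 : Odd (q ^ j + 1) := h1.add_one
            exact (Nat.not_even_iff_odd.mpr h2) (even_iff_two_dvd.mpr hrj)
          by_cases hv : padicValNat 2 (q + 1) ≤ padicValNat 2 n
          · exact hR ⟨rfl, hodd, hv⟩
          · obtain ⟨x, hx, c, hc, hx2, hrk⟩ := hIE F q n hq hodd (by omega) (by omega)
            exact der x hx (c ^ 2) c hx2 hc (by rw [hrk]; exact odd_one)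
              (Or.inr (by rw [hrk]; omega)) (by rw [hrk]; omega) hL
        · have hoddr : Odd r := hr.odd_of_ne_two hr2
          by_cases hrq1 : r ∣ q + 1
          · obtain ⟨x, hx, hxr, hrk⟩ := hSA F q n r hq hn hr hr2 hrq1
            exact der x hx 1 1 (by rw [hxr]; simp) (one_pow _) (by rw [hrk]; decide)
              (Or.inl hoddr) (by rw [hrk]; omega) hL
          · obtain ⟨j0, hj0, hj03, hj0j, hord⟩ := hSAr q r j hr hr2 hj hrj hrq1
            obtain ⟨B, hB, hBr, hBrk⟩ := hSC F p q r j0 hq hr hrp hj0 hj03 hord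
            obtain ⟨x, hx, hxk, hrk⟩ := hBE F q j0 n hq (by omega) B hB
            have hxr := hxk r hBr
            rw [hBrk] at hrk
            exact der x hx 1 1 (by rw [hxr]; simp) (one_pow _) (by rw [hrk]; exact hj0)
              (Or.inl hoddr) (by rw [hrk]; omega) hL
  · rintro ⟨rfl, hodd, hv⟩ x hx ⟨z, hz⟩ hns
    have hz1 := hSN F q n x z 2 hq (by omega) hx.1 hz
    rcases hZD F q z hq hodd hz1 with ⟨l, hl2, hl1⟩ | ⟨μ, hμ2, hμ1⟩
    · have hz' : ((x ^ 2 : GL (Fin n) F) : Matrix (Fin n) (Fin n) F) =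
          (l ^ 2) • (1 : Matrix (Fin n) (Fin n) F) := by rw [hl2]; exact hz
      have hev := hD1D F q n x l hq hodd (by omega) hx hz' hl1 hv
      obtain ⟨D', hP', hfix⟩ := hD1 F q n x l hq hodd he (by omega) hx.1 hz' hl1 hev
      obtain ⟨g, hg, hgD⟩ := pkgTrans_of hDB hIso hDF hGD q n (n / 2) hq D D' hPair hP'
      exact ⟨g, hg, hConjIn F n D D' g x hgD hfix⟩
    · have hz' : ((x ^ 2 : GL (Fin n) F) : Matrix (Fin n) (Fin n) F) =
          (μ ^ 2) • (1 : Matrix (Fin n) (Fin n) F) := by rw [hμ2]; exact hz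
      obtain ⟨D', hP', hfix⟩ := hD2 F q n x μ hq hodd (by omega) hx.1 hz' hμ1
      obtain ⟨g, hg, hgD⟩ := pkgTrans_of hDB hIso hDF hGD q n (n / 2) hq D D' hPair hP'
      exact ⟨g, hg, hConjIn F n D D' g x hgD hfix⟩

end Cfsg.Agent.Lib.Helper58.UPair
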